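import Cfsg.Agent.H547.RC.M2F
import Cfsg.Agent.H327.RC.SemiTwo

/-!
# S3510, `Sp₄(q)`, `q` even: a cover contains no semilinear element (helper547)

`m2f` = `ev_field` (helper327, fixed field of order at least four) + `m2f_two`.
-/

set_option autoImplicit false
set_option linter.unusedVariables false

namespace Cfsg.Agent.H547.RC

open Cfsg Cfsg.Agent.H106.RC Cfsg.Agent.H385.RC Module

/-- **`Sp₄(q)`, `q` even: a cover consists of linear elements** -/
theorem m2f {F V G Ω S : Type} [Field F] [Finite F] [AddCommGroup V] [Module F V] [FiniteDimensional F V] [Group G]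
    [Finite G] [DistribMulAction G V] {B : LinearMap.BilinForm F V} {N : Subgroup G} (h : Ev B N) [MulAction G Ω]
    [Nonempty Ω] (hE : Env G Ω N) [Group S] [Finite S] (hIH : IH (Nat.card S)) (eS : N ≃* S) {ι : Type} [Finite ι]
    {x : ι → G} {r : ι → ℕ} (hx : PF x r) (hcov : Cov Ω x) (hdim : finrank F V = 4) (hq : 2 < Nat.card F) (i : ι)
    (hi : x i ∉ N) : False := by
  by_cases hfix : ∀ c : F, (∀ v : V, x i • c • v = c • x i • v) → c = 0 ∨ c = 1
  · exact m2f_two h hE hIH eS hx hcov hdim i hi hfix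
  · push Not at hfix
    obtain ⟨c, hc, hc0, hc1⟩ := hfix
    exact Cfsg.Agent.H327.RC.ev_field h hE hIH eS hx hcov hdim.ge i hi (Or.inr ⟨c, hc0, hc1, hc⟩)

end Cfsg.Agent.H547.RC
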